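import Cfsg.Agent.H63.KgvSpec
import Cfsg.Agent.H28.GenChar

/-! Tower KGV, slot TM: tensor induction of a graded matrix representation. -/

set_option autoImplicit false

namespace H12.KgvTM

open Finset Cfsg H63.Kgv

universe u

theorem char_mat {E : Type u} [Group E] {ι : Type} [Fintype ι] [DecidableEq ι]
    (T : E → Matrix ι ι ℂ) (h1 : T 1 = 1) (hm : ∀ a b, T (a * b) = T a * T b) :
    IsCharacter E fun y => (T y).trace := by
  let ρ : Representation ℂ E (ι → ℂ) :=
    { toFun := fun y => Matrix.toLin' (T y)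
      map_one' := by rw [h1, Matrix.toLin'_one]; rfl
      map_mul' := fun a b => by rw [hm, Matrix.toLin'_mul]; rfl }
  have h := H28.isCharacter_rep ρ
  have e : ρ.character = fun y => (T y).trace := by
    funext y
    exact Matrix.trace_toLin'_eq (T y)
  rwa [e] at h

theorem good_graded (p : ℕ) [Fact p.Prime] {E : Type u} [Group E] {ι : Type} [Fintype ι]
    [DecidableEq ι] (T : E → Matrix ι ι ℂ) (h1 : T 1 = 1) (hm : ∀ a b, T (a * b) = T a * T b)
    (d : ι → ZMod p) (hd : ∀ y a b, d a ≠ d b → T y a b = 0) (Γ : ZMod p → E → ℂ)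
    (hΓ : ∀ t y, Γ t y = ∑ a, ee p (t * d a) * T y a a) : Good p E Γ := by
  classical
  refine ⟨fun c y => ((T y).submatrix (Subtype.val : {a // d a = c} → ι) Subtype.val).trace,
    fun c => ⟨_, 0, char_mat _ ?_ fun a b => ?_, H28.isCharacter_zero, (sub_zero _).symm⟩,
    fun t _ y => ?_⟩
  · rw [h1]
    exact Matrix.submatrix_one _ Subtype.val_injective
  · ext i j
    simp only [hm, Matrix.submatrix_apply, Matrix.mul_apply]
    rw [← Finset.sum_subtype (univ.filter fun k => d k = c) (by simp)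
      (fun k => T a i k * T b k j)]
    refine (Finset.sum_subset (filter_subset _ _) fun k _ hk => ?_).symm
    rw [hd a i k fun e => hk (by simp [← e, i.2]), zero_mul]
  · rw [hΓ, ← Finset.sum_fiberwise univ d]
    refine sum_congr rfl fun c _ => ?_
    simp only [Matrix.trace, Matrix.diag_apply, Matrix.submatrix_apply]
    rw [← Finset.sum_subtype (univ.filter fun k => d k = c) (by simp) (fun k => T y k k), mul_sum]
    exact sum_congr rfl fun k hk => by rw [(mem_filter.1 hk).2]

theorem chain {ι : Type} [Fintype ι] [DecidableEq ι] : ∀ (k : ℕ) (N : Fin k → Matrix ι ι ℂ)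
    (a b : ι), (List.ofFn N).prod a b = ∑ g : Fin k → ι,
      (∏ i, N i ((Fin.cons a g : Fin (k + 1) → ι) i.castSucc) (g i)) *
        if (Fin.cons a g : Fin (k + 1) → ι) (Fin.last k) = b then 1 else 0
  | 0, N, a, b => by simp [Matrix.one_apply]
  | k + 1, N, a, b => by
    rw [List.ofFn_succ, List.prod_cons, Matrix.mul_apply,
      ← (Fin.consEquiv fun _ : Fin (k + 1) => ι).sum_comp, Fintype.sum_prod_type]
    refine sum_congr rfl fun c _ => ?_
    rw [chain k, mul_sum]
    refine sum_congr rfl fun g _ => ?_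
    rw [Fin.prod_univ_succ, mul_assoc]
    rfl

theorem cyc {ι : Type} [Fintype ι] [DecidableEq ι] (k : ℕ) (N : Fin (k + 1) → Matrix ι ι ℂ) :
    (List.ofFn N).prod.trace = ∑ g : Fin (k + 1) → ι, ∏ i, N i (g (i - 1)) (g i) := by
  simp only [Matrix.trace, Matrix.diag_apply, chain]
  rw [sum_comm]
  refine sum_congr rfl fun g _ => ?_
  rw [sum_eq_single (g (Fin.last k))]
  · rw [if_pos (by rw [← Fin.succ_last, Fin.cons_succ]), mul_one]
    refine prod_congr rfl fun i _ => ?_
    congr 1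
    refine Fin.cases ?_ (fun j => ?_) i
    · rw [zero_sub, Fin.castSucc_zero, Fin.cons_zero]
      congr 1
      exact (Fin.neg_last k ▸ (neg_neg _).symm)
    · rw [← Fin.succ_castSucc, Fin.cons_succ]
      congr 1
      exact eq_sub_of_add_eq (Fin.coeSucc_eq_succ)
  · intro a _ ha
    rw [if_neg (by rw [← Fin.succ_last, Fin.cons_succ]; exact ha.symm), mul_zero]
  · simp

theorem tele {E : Type u} [Group E] (y : E) (τ : ℕ → E) : ∀ k : ℕ,
    (List.ofFn fun i : Fin k => (τ i)⁻¹ * y * τ (i + 1)).prod = (τ 0)⁻¹ * y ^ k * τ k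
  | 0 => by simp
  | k + 1 => by
    rw [List.ofFn_succ', List.prod_concat]
    simp only [Fin.val_castSucc, Fin.val_last]
    rw [tele y τ k, pow_succ]
    group

theorem exists_pi {E : Type u} [Group E] (H : Subgroup E) [H.Normal] (r : ℕ) (x : E)
    (hr : r.Prime) (hi : H.index = r) (hx : x ∉ H) : ∃ π : E → ZMod r,
    (∀ a b, π (a * b) = π a + π b) ∧ (∀ y, π y = 0 ↔ y ∈ H) ∧ π x = 1 := by
  have := Fact.mk hr
  have hc : Nat.card (E ⧸ H) = r := hi
  have hg : ∀ z : E ⧸ H, z ∈ Subgroup.zpowers (x : E ⧸ H) := fun z =>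
    mem_zpowers_of_prime_card hc fun e => hx ((QuotientGroup.eq_one_iff x).1 e)
  let e := (zmodMulEquivOfGenerator hg hc).symm
  refine ⟨fun y => (e (y : E ⧸ H)).toAdd, fun a b => by simp, fun y => ?_, ?_⟩
  · rw [toAdd_eq_zero, map_eq_one_iff _ e.injective, QuotientGroup.eq_one_iff]
  · simp [e]

theorem prod_D {H : Type u} [Group H] {n : ℕ} (ρ : H →* Matrix (Fin n) (Fin n) ℂ)
    (D : Matrix (Fin n) (Fin n) ℂ) (hD : ∀ h, Commute D (ρ h)) : ∀ L : List H,
    (L.map fun h => D * ρ h).prod = D ^ L.length * ρ L.prod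
  | [] => by simp
  | a :: L => by
    rw [List.map_cons, List.prod_cons, prod_D ρ D hD L, List.length_cons, List.prod_cons, map_mul,
      pow_succ', mul_assoc, mul_assoc, ← mul_assoc (ρ a), ← ((hD a).pow_left _).eq, mul_assoc]

theorem ee_sum (p : ℕ) [Fact p.Prime] {ι : Type} (s : Finset ι) (f : ι → ZMod p) :
    ee p (∑ i ∈ s, f i) = ∏ i ∈ s, ee p (f i) := by
  classical
  induction s using Finset.induction_on with
  | empty => simp [ee]
  | insert a s ha ih => rw [sum_insert ha, prod_insert ha, ← ih]; exact AddChar.map_add_eq_mul _ _ _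

theorem job : TmSt.{u} := by
  intro p _ E _ _ H _ r n x ρ dg Γ hr hi hx hρ hin hout
  classical
  obtain ⟨π, πm, π0, π1⟩ := exists_pi H r x hr hi hx
  have := Fact.mk hr
  obtain ⟨k, rfl⟩ : ∃ k, r = k + 1 := ⟨r - 1, (Nat.sub_add_cancel hr.pos).symm⟩
  have πone : π 1 = 0 := (π0 1).2 H.one_mem
  have πinv : ∀ a, π a⁻¹ = -π a := fun a =>
    eq_neg_of_add_eq_zero_left (by rw [← πm, inv_mul_cancel, πone])
  have πpow : ∀ j : ℕ, π (x ^ j) = j := fun j => by
    induction j with
    | zero => simpa using πone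
    | succ j ih => rw [pow_succ, πm, ih, π1, Nat.cast_succ]
  let τ : ZMod (k + 1) → E := fun s => (x ^ s.val)⁻¹
  have πτ : ∀ s, π (τ s) = -s := fun s => by
    simp only [τ]; rw [πinv, πpow, ZMod.natCast_zmod_val]
  have τ0 : τ 0 = 1 := by simp [τ]
  let c : E → ZMod (k + 1) → H := fun y s => ⟨(τ (s - π y))⁻¹ * y * τ s, (π0 _).1 (by
    rw [πm, πm, πinv, πτ, πτ]; ring)⟩
  have cm : ∀ a b s, c (a * b) s = c a (s - π b) * c b s := fun a b s => Subtype.ext (by
    change (τ (s - π (a * b)))⁻¹ * (a * b) * τ s =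
      (τ (s - π b - π a))⁻¹ * a * τ (s - π b) * ((τ (s - π b))⁻¹ * b * τ s)
    rw [πm, show s - (π a + π b) = s - π b - π a by ring]
    group)
  let T : E → Matrix (ZMod (k + 1) → Fin n) (ZMod (k + 1) → Fin n) ℂ := fun y f f' =>
    ∏ s, ρ (c y s) (f (s - π y)) (f' s)
  refine good_graded p T ?_ (fun a b => ?_) (fun f => ∑ s, dg (f s)) (fun y f f' hne => ?_) Γ
    fun t y => ?_
  · ext f f'
    have c1 : ∀ s, c 1 s = 1 := fun s => Subtype.ext (by
      change (τ (s - π 1))⁻¹ * 1 * τ s = 1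
      rw [πone, sub_zero]; group)
    simp only [T, c1, map_one, πone, sub_zero, Matrix.one_apply, Fintype.prod_ite_zero,
      prod_const_one, funext_iff]
  · ext f f''
    simp only [T, cm, map_mul, Matrix.mul_apply, πm]
    rw [Fintype.prod_sum, ← (Equiv.arrowCongr (Equiv.addRight (π b)) (Equiv.refl (Fin n))).sum_comp]
    refine sum_congr rfl fun f' _ => ?_
    change _ = (∏ s, ρ (c a s) (f (s - π a)) (f' s)) * ∏ s, ρ (c b s) (f' (s - π b)) (f'' s)
    rw [← (Equiv.subRight (π b)).prod_comp fun s => ρ (c a s) (f (s - π a)) (f' s), ← prod_mul_distrib]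
    refine prod_congr rfl fun s _ => ?_
    simp only [Equiv.subRight_apply, Equiv.arrowCongr_apply, Equiv.coe_refl, Function.comp, id,
      Equiv.addRight_symm, Equiv.coe_addRight, ← sub_eq_add_neg]
    rw [show s - (π a + π b) = s - π b - π a by ring]
  · by_contra h0
    refine hne ?_
    rw [← (Equiv.subRight (π y)).sum_comp fun s => dg (f s)]
    refine sum_congr rfl fun s _ => ?_
    by_contra h1
    exact h0 (prod_eq_zero (mem_univ s) (hρ _ _ _ h1))
  have key : ∀ f : ZMod (k + 1) → Fin n, ee p (t * ∑ s, dg (f s)) * T y f f =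
      ∏ s, ee p (t * dg (f (s - π y))) * ρ (c y s) (f (s - π y)) (f s) := fun f => by
    rw [prod_mul_distrib, ← ee_sum, ← mul_sum, ← (Equiv.subRight (π y)).sum_comp fun s => dg (f s)]
    rfl
  simp only [key]
  by_cases hy : y ∈ H
  · rw [hin t ⟨y, hy⟩, (π0 y).2 hy]
    simp only [sub_zero]
    rw [← Fintype.prod_sum fun s a => ee p (t * dg a) * ρ (c y s) a a, ← Fin.prod_univ_eq_prod_range
      (fun j => ∑ a, ee p (t * dg a) * ρ (MulAut.conjNormal (x ^ j) ⟨y, hy⟩) a a)]
    refine prod_congr rfl fun s _ => ?_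
    have : ∀ s : ZMod (k + 1), MulAut.conjNormal (x ^ s.val) (⟨y, hy⟩ : H) = c y s := fun s =>
      Subtype.ext (by
        change x ^ s.val * y * (x ^ s.val)⁻¹ = (τ (s - π y))⁻¹ * y * τ s
        rw [(π0 y).2 hy, sub_zero, inv_inv])
    exact congrArg (fun h => ∑ a, ee p (t * dg a) * ρ h a a) (this s)
  · have hu : π y ≠ 0 := fun e => hy ((π0 y).1 e)
    have hm : y ^ (k + 1) ∈ H := hi ▸ H.pow_index_mem y
    rw [hout t y ⟨_, hm⟩ hy rfl]
    let D : Matrix (Fin n) (Fin n) ℂ := Matrix.diagonal fun a => ee p (t * dg a)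
    have hD : ∀ h, Commute D (ρ h) := fun h => by
      ext a b
      simp only [D, Matrix.diagonal_mul, Matrix.mul_diagonal]
      by_cases e : dg a = dg b
      · rw [e, mul_comm]
      · rw [hρ h a b e, mul_zero, zero_mul]
    let e : ZMod (k + 1) ≃ ZMod (k + 1) := (Equiv.addRight 1).trans (Equiv.mulRight₀ (π y) hu)
    have he : ∀ i, e i = (i + 1) * π y := fun _ => rfl
    have h1 : (List.ofFn fun i : Fin (k + 1) => D * ρ (c y (e i))).prod.trace =
        ∑ g : ZMod (k + 1) → Fin n, ∏ i : ZMod (k + 1), (D * ρ (c y (e i))) (g (i - 1)) (g i) :=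
      cyc k fun i : Fin (k + 1) => D * ρ (c y (e i))
    have h2 : (List.ofFn fun i : Fin (k + 1) => c y (e i)).prod = ⟨_, hm⟩ := by
      apply Subtype.ext
      have h3 := tele y (fun j : ℕ => τ ((j : ZMod (k + 1)) * π y)) (k + 1)
      simp only [Nat.cast_zero, zero_mul, τ0, ZMod.natCast_self, inv_one, one_mul, mul_one] at h3
      rw [Subgroup.val_list_prod, List.map_ofFn]
      refine Eq.trans ?_ h3
      congr 2
      funext i
      have hi' : ∀ i : ZMod (k + 1), (τ (e i - π y))⁻¹ * y * τ (e i) =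
          (τ ((i.val : ZMod (k + 1)) * π y))⁻¹ * y * τ (((i.val + 1 : ℕ) : ZMod (k + 1)) * π y) :=
        fun i => by
          rw [Nat.cast_succ, ZMod.natCast_zmod_val, he, add_mul, one_mul, add_sub_cancel_right]
      exact hi' i
    have h4 := prod_D ρ D hD (List.ofFn fun i : Fin (k + 1) => c y (e i))
    rw [List.map_ofFn, List.length_ofFn, h2] at h4
    have h5 : (D ^ (k + 1) * ρ ⟨_, hm⟩).trace =
        ∑ a, ee p (((k + 1 : ℕ) : ZMod p) * t * dg a) * ρ ⟨_, hm⟩ a a := by
      simp only [D, Matrix.diagonal_pow, Matrix.trace, Matrix.diag_apply, Matrix.diagonal_mul,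
        Pi.pow_apply]
      refine sum_congr rfl fun a _ => ?_
      rw [mul_assoc, ← nsmul_eq_mul]
      exact congrArg (· * _) (AddChar.map_nsmul_eq_pow _ _ _).symm
    rw [← h5, ← h4]
    refine h1.trans ?_
    rw [← (Equiv.arrowCongr e.symm (Equiv.refl (Fin n))).sum_comp]
    refine sum_congr rfl fun f _ => ?_
    rw [← e.prod_comp fun s => ee p (t * dg (f (s - π y))) * ρ (c y s) (f (s - π y)) (f s)]
    refine prod_congr rfl fun i _ => ?_
    simp only [D, Matrix.diagonal_mul, Equiv.arrowCongr_apply, Equiv.symm_symm, Equiv.coe_refl,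
      Function.comp, id]
    rw [show e (i - 1) = e i - π y by rw [he, he]; ring]

end H12.KgvTM
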